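import Cfsg.Agent.Lib.H16.CosetEnum

/-!
The six-generator Coxeter-type presentation inside the presented O'Nan group, and the five-generator
presentation of its parabolic subgroup.
-/

set_option autoImplicit false

namespace Cfsg.Agent.H16.ON6

/-- The generators `a, …, f`. -/
inductive Gen
  | a | b | c | d | e | f
  deriving DecidableEq

/-- The path with labels `3, 3, 8, 3, 3`. -/
def edges : List (Gen × ℕ × Gen) :=
  [(.a, 3, .b), (.b, 3, .c), (.c, 8, .d), (.d, 3, .e), (.e, 3, .f)]

abbrev a : FreeGroup Gen := FreeGroup.of Gen.a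
abbrev b : FreeGroup Gen := FreeGroup.of Gen.b
abbrev c : FreeGroup Gen := FreeGroup.of Gen.c
abbrev d : FreeGroup Gen := FreeGroup.of Gen.d
abbrev e : FreeGroup Gen := FreeGroup.of Gen.e
abbrev f : FreeGroup Gen := FreeGroup.of Gen.f

/-- The one further relator `a f = (c d)^4`. -/
def extra : List (FreeGroup Gen) := [(a * f) * (((c * d) ^ 4)⁻¹)]

/-- The group `P`. -/
abbrev P : Type := Cfsg.Spor.CoxPresented Gen edges extra

namespace Five

/-- The generators `a, b, c, e, f`. -/
inductive Gen
  | a | b | c | e | f
  deriving DecidableEq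

def edges : List (Gen × ℕ × Gen) :=
  [(.a, 3, .b), (.b, 3, .c), (.e, 3, .f)]

def extra : List (FreeGroup Gen) := []

abbrev P : Type := Cfsg.Spor.CoxPresented Gen edges extra

end Five

end Cfsg.Agent.H16.ON6
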