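import Cfsg.Agent.Lib.H16.ON6.Defs
import Cfsg.Agent.Lib.Lead.SLn

/-!
`PSL₃(7) : 2` as a semidirect product, and the map from the six-generator group onto it: the generators go
to polarities (symmetric matrices composed with the inverse-transpose automorphism).
-/

set_option autoImplicit false

namespace Cfsg.Agent.H16.ON6

open Matrix

abbrev SL3 := Matrix.SpecialLinearGroup (Fin 3) (ZMod 7)
abbrev PS := Matrix.ProjectiveSpecialLinearGroup (Fin 3) (ZMod 7)
abbrev M3 := Matrix (Fin 3) (Fin 3) (ZMod 7)
abbrev C2 := Multiplicative (ZMod 2)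

theorem tr_mul (X Y : SL3) : (X * Y).transpose = Y.transpose * X.transpose := by
  apply Subtype.ext
  simp [SpecialLinearGroup.coe_transpose, Matrix.transpose_mul]

theorem tr_one : (1 : SL3).transpose = 1 := by
  apply Subtype.ext
  simp [SpecialLinearGroup.coe_transpose]

theorem tr_tr (X : SL3) : X.transpose.transpose = X := by
  apply Subtype.ext
  simp [SpecialLinearGroup.coe_transpose]

theorem tr_inv (X : SL3) : (X⁻¹).transpose = (X.transpose)⁻¹ := by
  apply eq_inv_of_mul_eq_one_left
  rw [← tr_mul, mul_inv_cancel, tr_one]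

/-- Inverse transpose on `SL₃(7)`. -/
def tau : SL3 ≃* SL3 where
  toFun X := (X.transpose)⁻¹
  invFun X := (X.transpose)⁻¹
  left_inv X := by
    simp only [← tr_inv, inv_inv, tr_tr]
  right_inv X := by
    simp only [← tr_inv, inv_inv, tr_tr]
  map_mul' X Y := by
    simp only [tr_mul, _root_.mul_inv_rev]

theorem tau_apply (X : SL3) : tau X = (X.transpose)⁻¹ := rfl

theorem tau_tau (X : SL3) : tau (tau X) = X := tau.left_inv X

theorem map_center_tau : (Subgroup.center SL3).map tau.toMonoidHom = Subgroup.center SL3 := by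
  have : (Subgroup.center SL3).Characteristic := inferInstance
  exact Subgroup.characteristic_iff_map_eq.1 this tau

/-- The induced automorphism of `PSL₃(7)`. -/
noncomputable def tauBar : PS ≃* PS :=
  QuotientGroup.congr (Subgroup.center SL3) (Subgroup.center SL3) tau map_center_tau

theorem tauBar_mk (X : SL3) : tauBar (QuotientGroup.mk X) = QuotientGroup.mk (tau X) := rfl

theorem tauBar_tauBar (p : PS) : tauBar (tauBar p) = p := by
  obtain ⟨X, rfl⟩ := QuotientGroup.mk_surjective p
  rw [tauBar_mk, tauBar_mk, tau_tau]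

/-- The nontrivial element of `C₂`. -/
def om : C2 := Multiplicative.ofAdd 1

theorem c2_cases : ∀ s : C2, s = 1 ∨ s = om := by decide

theorem om_ne : om ≠ 1 := by decide

theorem om_om : om * om = 1 := by decide

/-- The action of `C₂`. -/
noncomputable def phi : C2 →* MulAut PS where
  toFun s := if s = 1 then 1 else tauBar
  map_one' := by simp
  map_mul' s t := by
    rcases c2_cases s with rfl | rfl <;> rcases c2_cases t with rfl | rfl
    · simp
    · simp [om_ne]
    · simp [om_ne]
    · rw [om_om]
      simp only [om_ne, if_true, if_false]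
      ext p
      simp [tauBar_tauBar]

theorem phi_om : phi om = tauBar := by
  show (if om = 1 then 1 else tauBar) = tauBar
  simp [om_ne]

/-- The group `PSL₃(7) : 2`. -/
abbrev Gam := PS ⋊[phi] C2

/-- The symmetric matrices of the generators. -/
def Am : Gen → M3
  | .a => !![3,0,0;0,1,6;0,6,6]
  | .b => !![3,0,6;0,1,0;6,0,3]
  | .c => !![1,0,0;0,1,0;0,0,1]
  | .d => !![3,2,1;2,0,6;1,6,5]
  | .e => !![3,2,3;2,0,5;3,5,3]
  | .f => !![1,0,0;0,6,0;0,0,6]

/-- Their inverses. -/
def Bm : Gen → M3
  | .a => !![5,0,0;0,4,3;0,3,3]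
  | .b => !![3,0,1;0,1,0;1,0,3]
  | .c => !![1,0,0;0,1,0;0,0,1]
  | .d => !![6,3,5;3,0,5;5,5,3]
  | .e => !![3,2,3;2,0,5;3,5,3]
  | .f => !![1,0,0;0,6,0;0,0,6]

theorem Am_det (x : Gen) : (Am x).det = 1 := by
  rw [Matrix.det_fin_three]
  cases x <;> decide +kernel

theorem Bm_det (x : Gen) : (Bm x).det = 1 := by
  rw [Matrix.det_fin_three]
  cases x <;> decide +kernel

theorem Am_symm (x : Gen) : (Am x).transpose = Am x := by
  cases x <;> decide +kernel

theorem Am_Bm (x : Gen) : Am x * Bm x = 1 := by
  cases x <;> decide +kernel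

def A (x : Gen) : SL3 := ⟨Am x, Am_det x⟩
def B (x : Gen) : SL3 := ⟨Bm x, Bm_det x⟩

theorem A_mul_B (x : Gen) : A x * B x = 1 := Subtype.ext (Am_Bm x)

theorem tau_A (x : Gen) : tau (A x) = B x := by
  rw [tau_apply]
  have : (A x).transpose = A x := Subtype.ext (Am_symm x)
  rw [this]
  exact inv_eq_of_mul_eq_one_right (A_mul_B x)

/-- A matrix is one of the three scalar matrices of determinant one. -/
def IsC (X : M3) : Prop := X = 1 ∨ X = !![2,0,0;0,2,0;0,0,2] ∨ X = !![4,0,0;0,4,0;0,0,4]

instance (X : M3) : Decidable (IsC X) := by unfold IsC; exact inferInstance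

theorem mem_center_of_isC (X : SL3) (h : IsC X.1) : X ∈ Subgroup.center SL3 := by
  rw [Matrix.SpecialLinearGroup.mem_center_iff]
  rcases h with h | h | h
  · exact ⟨1, by simp, by rw [h]; simp⟩
  · exact ⟨2, by decide, by rw [h]; decide⟩
  · exact ⟨4, by decide, by rw [h]; decide⟩

theorem mk_eq_one_of_isC (X : SL3) (h : IsC X.1) : (QuotientGroup.mk X : PS) = 1 :=
  (QuotientGroup.eq_one_iff X).2 (mem_center_of_isC X h)

/-- The images of the generators. -/
noncomputable def gen (x : Gen) : Gam := ⟨QuotientGroup.mk (A x), om⟩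

theorem gen_mul (x y : Gen) : gen x * gen y = SemidirectProduct.inl (QuotientGroup.mk (A x * B y)) := by
  apply SemidirectProduct.ext
  · rw [SemidirectProduct.mul_left, SemidirectProduct.left_inl]
    show (QuotientGroup.mk (A x) : PS) * phi om (QuotientGroup.mk (A y)) = _
    rw [phi_om, tauBar_mk, tau_A]
    rfl
  · rw [SemidirectProduct.mul_right, SemidirectProduct.right_inl]
    exact om_om

/-- The coxeter relators hold. -/
theorem cox_central (x y : Gen) : IsC ((Am x * Bm y) ^ (Cfsg.Spor.coxLabel edges x y)) := by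
  cases x <;> cases y <;> decide +kernel

theorem extra_eq : Am .a * Bm .f = (Am .c * Bm .d) ^ 4 := by decide +kernel

theorem AB_coe (x y : Gen) (m : ℕ) : ((A x * B y) ^ m).1 = (Am x * Bm y) ^ m := rfl

theorem gen_relators : ∀ r ∈ Cfsg.Spor.coxRelators edges ∪ {r | r ∈ extra}, FreeGroup.lift gen r = 1 := by
  rintro r (⟨x, -, y, -, rfl⟩ | hr)
  · simp only [map_pow, map_mul, FreeGroup.lift_apply_of]
    rw [gen_mul, ← map_pow, ← QuotientGroup.mk_pow, mk_eq_one_of_isC _ (cox_central x y), map_one]
  · have hr' : r = (a * f) * (((c * d) ^ 4)⁻¹) := by simpa [extra] using hr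
    subst hr'
    simp only [map_pow, map_mul, map_inv, FreeGroup.lift_apply_of]
    rw [gen_mul, gen_mul, ← map_pow, ← QuotientGroup.mk_pow]
    have : A .a * B .f = (A .c * B .d) ^ 4 := Subtype.ext extra_eq
    rw [this]
    simp

/-- The map from the six-generator group to `PSL₃(7) : 2`. -/
noncomputable def theta : P →* Gam := PresentedGroup.toGroup gen_relators

theorem theta_of (x : Gen) : theta (PresentedGroup.of x) = gen x := PresentedGroup.toGroup.of gen_relators

end Cfsg.Agent.H16.ON6
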