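import Cfsg.Agent.Lib.H16.ON6.Gamma
import Cfsg.Agent.Lib.H16.ON6.Tab5
import Cfsg.Agent.Lib.H16.ON6.Tab6
import Cfsg.Agent.Lib.Lead.CardSL

/-!
The map `theta` from the six-generator group to `PSL₃(7) : 2` is bijective.
-/

set_option autoImplicit false

namespace Cfsg.Agent.H16.ON6

open Matrix

instance fact7 : Fact (Nat.Prime 7) := ⟨by norm_num⟩

/-- The elements of `SL₃(7)` whose class lies in the image of `theta`. -/
noncomputable def Q : Subgroup SL3 :=
  ((theta.range).comap (SemidirectProduct.inl : PS →* Gam)).comap (QuotientGroup.mk' (Subgroup.center SL3))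

theorem mem_Q {X : SL3} : X ∈ Q ↔ (SemidirectProduct.inl (QuotientGroup.mk X : PS) : Gam) ∈ theta.range := Iff.rfl

theorem pair_mem_Q (x y : Gen) : A x * B y ∈ Q := by
  rw [mem_Q]
  refine ⟨PresentedGroup.of x * PresentedGroup.of y, ?_⟩
  rw [map_mul, theta_of, theta_of, gen_mul]

theorem center_le_Q : Subgroup.center SL3 ≤ Q := by
  intro z hz
  rw [mem_Q, (QuotientGroup.eq_one_iff z).2 hz, map_one]
  exact Subgroup.one_mem _

def wprod (l : List (Gen × Gen)) : SL3 := (l.map fun p => A p.1 * B p.2).prod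
def wm (l : List (Gen × Gen)) : M3 := (l.map fun p => Am p.1 * Bm p.2).prod

theorem wprod_coe (l : List (Gen × Gen)) : (wprod l).1 = wm l := by
  induction l with
  | nil => rfl
  | cons p l ih =>
    simp only [wprod, wm, List.map_cons, List.prod_cons] at ih ⊢
    rw [Matrix.SpecialLinearGroup.coe_mul, ih]
    rfl

theorem wprod_mem (l : List (Gen × Gen)) : wprod l ∈ Q := by
  apply Subgroup.list_prod_mem
  intro X hX
  obtain ⟨p, -, rfl⟩ := List.mem_map.1 hX
  exact pair_mem_Q _ _

/-- Scalar matrices. -/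
def Z2 : SL3 := ⟨!![2,0,0;0,2,0;0,0,2], by rw [Matrix.det_fin_three]; decide +kernel⟩
def Z4 : SL3 := ⟨!![4,0,0;0,4,0;0,0,4], by rw [Matrix.det_fin_three]; decide +kernel⟩

theorem Z2_mem : Z2 ∈ Q := center_le_Q (mem_center_of_isC _ (Or.inr (Or.inl rfl)))
theorem Z4_mem : Z4 ∈ Q := center_le_Q (mem_center_of_isC _ (Or.inr (Or.inr rfl)))

abbrev tv {i j : Fin 3} (h : i ≠ j) (c : ZMod 7) : SL3 := Matrix.SpecialLinearGroup.transvection h c

theorem tv01 (h : (0 : Fin 3) ≠ 1) : tv h 1 ∈ Q := by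
  have : tv h 1 = Z2 * wprod [(.a,.c),(.d,.e),(.d,.c),(.b,.d),(.f,.e),(.d,.c),(.d,.c),(.b,.e),(.d,.c),(.d,.c),(.e,.d),(.f,.e)] := by
    apply Subtype.ext
    rw [Matrix.SpecialLinearGroup.coe_mul, wprod_coe]
    show Matrix.transvection _ _ _ = _
    decide +kernel
  rw [this]
  exact Q.mul_mem Z2_mem (wprod_mem _)

theorem tv02 (h : (0 : Fin 3) ≠ 2) : tv h 1 ∈ Q := by
  have : tv h 1 = Z2 * wprod [(.a,.b),(.e,.d),(.f,.e),(.d,.c),(.b,.d),(.c,.b),(.d,.e),(.d,.c),(.b,.a),(.d,.c),(.f,.e)] := by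
    apply Subtype.ext
    rw [Matrix.SpecialLinearGroup.coe_mul, wprod_coe]
    show Matrix.transvection _ _ _ = _
    decide +kernel
  rw [this]
  exact Q.mul_mem Z2_mem (wprod_mem _)

theorem tv10 (h : (1 : Fin 3) ≠ 0) : tv h 1 ∈ Q := by
  have : tv h 1 = Z2 * wprod [(.c,.e),(.d,.c),(.f,.e),(.d,.c),(.b,.d),(.c,.d),(.e,.d),(.c,.b),(.a,.d),(.c,.e),(.d,.f),(.e,.d)] := by
    apply Subtype.ext
    rw [Matrix.SpecialLinearGroup.coe_mul, wprod_coe]
    show Matrix.transvection _ _ _ = _
    decide +kernel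
  rw [this]
  exact Q.mul_mem Z2_mem (wprod_mem _)

theorem tv12 (h : (1 : Fin 3) ≠ 2) : tv h 1 ∈ Q := by
  have : tv h 1 = wprod [(.b,.d),(.e,.d),(.c,.b),(.d,.c),(.e,.d),(.c,.b),(.d,.c),(.d,.e),(.d,.c),(.b,.f),(.e,.d),(.c,.b),(.d,.c),(.e,.d),(.f,.e)] := by
    apply Subtype.ext
    rw [wprod_coe]
    show Matrix.transvection _ _ _ = _
    decide +kernel
  rw [this]
  exact wprod_mem _

theorem tv20 (h : (2 : Fin 3) ≠ 0) : tv h 1 ∈ Q := by
  have : tv h 1 = Z4 * wprod [(.a,.b),(.e,.d),(.c,.b),(.d,.f),(.e,.d),(.c,.b),(.d,.c),(.b,.a),(.d,.e),(.d,.c),(.f,.e)] := by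
    apply Subtype.ext
    rw [Matrix.SpecialLinearGroup.coe_mul, wprod_coe]
    show Matrix.transvection _ _ _ = _
    decide +kernel
  rw [this]
  exact Q.mul_mem Z4_mem (wprod_mem _)

theorem tv21 (h : (2 : Fin 3) ≠ 1) : tv h 1 ∈ Q := by
  have : tv h 1 = Z4 * wprod [(.a,.b),(.e,.d),(.c,.b),(.f,.e),(.d,.c),(.b,.a),(.d,.c),(.b,.e),(.d,.c),(.b,.d),(.c,.b),(.e,.d),(.c,.b),(.d,.c),(.d,.e),(.f,.e)] := by
    apply Subtype.ext
    rw [Matrix.SpecialLinearGroup.coe_mul, wprod_coe]
    show Matrix.transvection _ _ _ = _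
    decide +kernel
  rw [this]
  exact Q.mul_mem Z4_mem (wprod_mem _)

theorem tv_one_mem {i j : Fin 3} (h : i ≠ j) : tv h 1 ∈ Q := by
  fin_cases i <;> fin_cases j
  · exact absurd rfl h
  · exact tv01 h
  · exact tv02 h
  · exact tv10 h
  · exact absurd rfl h
  · exact tv12 h
  · exact tv20 h
  · exact tv21 h
  · exact absurd rfl h

theorem tv_nat {i j : Fin 3} (h : i ≠ j) (n : ℕ) : tv h (n : ZMod 7) = tv h 1 ^ n := by
  induction n with
  | zero =>
    apply Subtype.ext
    show Matrix.transvection i j ((0 : ℕ) : ZMod 7) = 1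
    simp
  | succ n ih =>
    rw [pow_succ, ← ih]
    apply Subtype.ext
    rw [Matrix.SpecialLinearGroup.coe_mul]
    show Matrix.transvection i j ((n + 1 : ℕ) : ZMod 7) = Matrix.transvection i j (n : ZMod 7) * Matrix.transvection i j 1
    rw [Matrix.transvection_mul_transvection_same]
    · simp
    · exact h

theorem tv_mem {i j : Fin 3} (h : i ≠ j) (c : ZMod 7) : tv h c ∈ Q := by
  have : c = ((c.val : ℕ) : ZMod 7) := (ZMod.natCast_zmod_val c).symm
  rw [this, tv_nat]
  exact Q.pow_mem (tv_one_mem h) _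

theorem Q_eq_top (X : SL3) : X ∈ Q := by
  refine Cfsg.Agent.Lead.transvection_induction' (fun X => X ∈ Q) ?_ ?_ X
  · intro i j h c
    exact tv_mem h c
  · intro U V hU hV
    exact Q.mul_mem hU hV

theorem inl_mem_range (p : PS) : (SemidirectProduct.inl p : Gam) ∈ theta.range := by
  obtain ⟨X, rfl⟩ := QuotientGroup.mk_surjective p
  exact mem_Q.1 (Q_eq_top X)

theorem theta_surj : Function.Surjective theta := by
  intro g
  rcases c2_cases g.right with h | h
  · have : g = SemidirectProduct.inl g.left := by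
      apply SemidirectProduct.ext <;> simp [h]
    rw [this]
    exact inl_mem_range _
  · have h1 : (g * (gen .a)⁻¹) ∈ theta.range := by
      have : g * (gen .a)⁻¹ = SemidirectProduct.inl (g * (gen .a)⁻¹).left := by
        apply SemidirectProduct.ext
        · simp
        · simp [h, gen, SemidirectProduct.mul_right, SemidirectProduct.inv_right, om]
      rw [this]
      exact inl_mem_range _
    obtain ⟨x, hx⟩ := h1
    refine ⟨x * PresentedGroup.of .a, ?_⟩
    rw [map_mul, hx, theta_of]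
    simp

/-! ### The bound -/

open Cfsg.Agent.H16.CosetEnum

/-- The parabolic subgroup `⟨a, b, c, e, f⟩` of `P`. -/
abbrev T : Subgroup P := subH Cfsg.Agent.H16.CE.S1693.R Cfsg.Agent.H16.CE.S1693.S

theorem index_T : T.index = 26068 := Cfsg.Agent.H16.CE.S1693.theIndex

theorem card_five : Nat.card Five.P = 144 := by
  have h := Cfsg.Agent.H16.CE.S1693b.theIndex
  have h2 : subH Cfsg.Agent.H16.CE.S1693b.R Cfsg.Agent.H16.CE.S1693b.S = ⊥ := by
    rw [eq_bot_iff, subH, Subgroup.map_le_iff_le_comap, Subgroup.closure_le]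
    intro s hs
    have hs' : s = FreeGroup.of Five.Gen.a * FreeGroup.of Five.Gen.a := hs
    subst hs'
    simp only [SetLike.mem_coe, Subgroup.mem_comap, Subgroup.mem_bot]
    apply PresentedGroup.one_of_mem
    left
    refine ⟨.a, by decide, .a, by decide, ?_⟩
    rw [show Cfsg.Spor.coxLabel Five.edges Five.Gen.a Five.Gen.a = 1 from rfl, pow_one]
  rw [h2, Subgroup.index_bot] at h
  exact h

/-- The map from the five-generator group onto `T`. -/
def fiveGen : Five.Gen → Gen
  | .a => .a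
  | .b => .b
  | .c => .c
  | .e => .e
  | .f => .f

theorem five_label (x y : Five.Gen) :
    Cfsg.Spor.coxLabel Five.edges x y = Cfsg.Spor.coxLabel edges (fiveGen x) (fiveGen y) := by
  cases x <;> cases y <;> rfl

theorem five_nodes (x : Five.Gen) : fiveGen x ∈ Cfsg.Spor.coxNodes edges := by
  cases x <;> decide

theorem nodes_all (x : Gen) : x ∈ Cfsg.Spor.coxNodes edges := by
  cases x <;> decide

theorem five_rel : ∀ r ∈ Cfsg.Spor.coxRelators Five.edges ∪ {r | r ∈ Five.extra},
    FreeGroup.lift (fun x => (PresentedGroup.of (fiveGen x) : P)) r = 1 := by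
  rintro r (⟨x, -, y, -, rfl⟩ | hr)
  · simp only [map_pow, map_mul, FreeGroup.lift_apply_of]
    rw [five_label]
    have : (PresentedGroup.of (fiveGen x) * PresentedGroup.of (fiveGen y) : P) ^
        Cfsg.Spor.coxLabel edges (fiveGen x) (fiveGen y) =
        PresentedGroup.mk _ ((FreeGroup.of (fiveGen x) * FreeGroup.of (fiveGen y)) ^
        Cfsg.Spor.coxLabel edges (fiveGen x) (fiveGen y)) := by
      simp [PresentedGroup.of]
    rw [this]
    apply PresentedGroup.one_of_mem
    exact Or.inl ⟨_, five_nodes x, _, five_nodes y, rfl⟩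
  · exact absurd hr (by simp [Five.extra])

noncomputable def fiveHom : Five.P →* P := PresentedGroup.toGroup five_rel

theorem fiveHom_range : T ≤ fiveHom.range := by
  show Subgroup.map (PresentedGroup.mk _) (Subgroup.closure Cfsg.Agent.H16.CE.S1693.S) ≤ _
  rw [Subgroup.map_le_iff_le_comap, Subgroup.closure_le]
  intro s hs
  have hs' : s = FreeGroup.of Gen.a ∨ s = FreeGroup.of Gen.b ∨ s = FreeGroup.of Gen.c ∨
      s = FreeGroup.of Gen.e ∨ s = FreeGroup.of Gen.f := by
    simpa [Cfsg.Agent.H16.CE.S1693.S] using hs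
  rcases hs' with rfl | rfl | rfl | rfl | rfl
  · exact ⟨PresentedGroup.of .a, PresentedGroup.toGroup.of five_rel⟩
  · exact ⟨PresentedGroup.of .b, PresentedGroup.toGroup.of five_rel⟩
  · exact ⟨PresentedGroup.of .c, PresentedGroup.toGroup.of five_rel⟩
  · exact ⟨PresentedGroup.of .e, PresentedGroup.toGroup.of five_rel⟩
  · exact ⟨PresentedGroup.of .f, PresentedGroup.toGroup.of five_rel⟩

instance finite_five : Finite Five.P := Nat.finite_of_card_ne_zero (by rw [card_five]; norm_num)

instance finite_range : Finite fiveHom.range :=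
  Finite.of_surjective fiveHom.rangeRestrict fiveHom.rangeRestrict_surjective

instance finite_T : Finite T :=
  Finite.of_injective (Subgroup.inclusion fiveHom_range) (Subgroup.inclusion_injective _)

theorem card_T_le : Nat.card T ≤ 144 := by
  have h1 : Nat.card T ≤ Nat.card fiveHom.range :=
    Nat.card_le_card_of_injective (Subgroup.inclusion fiveHom_range) (Subgroup.inclusion_injective _)
  have h2 : Nat.card fiveHom.range ≤ Nat.card Five.P :=
    Nat.card_le_card_of_surjective fiveHom.rangeRestrict fiveHom.rangeRestrict_surjective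
  rw [card_five] at h2
  omega

theorem card_P_le : Nat.card P ≤ 3753792 := by
  have := Subgroup.card_mul_index T
  rw [index_T] at this
  have h := card_T_le
  omega

instance finite_P : Finite P := Nat.finite_of_card_ne_zero (by
  have := Subgroup.card_mul_index T
  rw [index_T] at this
  have h : 0 < Nat.card T := Nat.card_pos
  omega)

theorem card_PS : Nat.card PS = 1876896 := by
  have h := Cfsg.Agent.Lead.card_PSL (F := ZMod 7) 3 (by norm_num)
  generalize Nat.card (Matrix.ProjectiveSpecialLinearGroup (Fin 3) (ZMod 7)) = n at h ⊢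
  simp only [ZMod.card, Fin.prod_univ_three] at h
  norm_num at h
  omega

theorem card_Gam : Nat.card Gam = 3753792 := by
  rw [SemidirectProduct.card, card_PS]
  simp [C2]

theorem theta_bij : Function.Bijective theta :=
  (Function.Surjective.bijective_of_nat_card_le theta_surj (by rw [card_Gam]; exact card_P_le))

end Cfsg.Agent.H16.ON6
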